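import Cfsg.Agent.H816.IMEig

/-!
# S4612: transfer of a spherical character to another permutation module (helper594)

`G` acts on `X` and `Y`; `e` an invariant kernel on `X` with `e * e = n e`, `e M e ∈ ℂ e` for every invariant kernel `M`
(Schur), `χ g = a ∑ x, e x (g x)`; `P : Y × X`, `Q : X × Y` invariant, `K = P e Q`.  If `K y y ≠ 0`, then
`χ g = a' ∑ y, K y (g y)` (`transfer_abs`).

* `schur_of_eig` : the Schur condition for the spherical function of an eigenspace of dimension one of an intersection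
  matrix;
* `transfer` : the version with colours, normalised to `ω' o' = 1`, ready for `H582.Sph.sameBlock_of_sph`.
-/

set_option autoImplicit false
set_option linter.unusedSectionVars false

namespace Cfsg.Agent.H594.PQ

open Cfsg Cfsg.Agent.H816.IMEig Cfsg.Agent.H816.IMEig.Col
open scoped BigOperators

universe u v w

variable {G : Type u} [Group G] {X : Type v} [MulAction G X] [Fintype X] {Y : Type w} [MulAction G Y] [Fintype Y]

/-- the matrix product of kernels -/
def kmul {A B C : Type*} [Fintype B] (p : A → B → ℂ) (q : B → C → ℂ) : A → C → ℂ := fun a c => ∑ b, p a b * q b c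

theorem kmul_inv {A B C : Type*} [MulAction G A] [MulAction G B] [MulAction G C] [Fintype B] {p : A → B → ℂ}
    {q : B → C → ℂ} (hp : ∀ (g : G) a b, p (g • a) (g • b) = p a b) (hq : ∀ (g : G) b c, q (g • b) (g • c) = q b c)
    (g : G) (a : A) (c : C) : kmul p q (g • a) (g • c) = kmul p q a c := by
  unfold kmul
  refine Fintype.sum_equiv (MulAction.toPerm g⁻¹ : Equiv.Perm B) _ _ fun b => ?_
  rw [MulAction.toPerm_apply]
  have h1 := hp g a (g⁻¹ • b)
  have h2 := hq g (g⁻¹ • b) c
  rw [smul_inv_smul] at h1 h2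
  rw [h1, h2]

theorem kmul_assoc {A B C D : Type*} [Fintype B] [Fintype C] (p : A → B → ℂ) (q : B → C → ℂ) (r : C → D → ℂ) :
    kmul (kmul p q) r = kmul p (kmul q r) := by
  funext a d
  unfold kmul
  simp only [Finset.sum_mul, Finset.mul_sum]
  rw [Finset.sum_comm]
  refine Finset.sum_congr rfl fun b _ => Finset.sum_congr rfl fun c _ => ?_
  ring

/-- the twisted trace of a product of invariant kernels -/
theorem trace_comm {A B : Type*} [MulAction G A] [MulAction G B] [Fintype A] [Fintype B] (p : A → B → ℂ) (q : B → A → ℂ)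
    (hp : ∀ (g : G) a b, p (g • a) (g • b) = p a b) (g : G) :
    ∑ a, kmul p q a (g • a) = ∑ b, kmul q p b (g • b) := by
  unfold kmul
  rw [Finset.sum_comm]
  refine Finset.sum_congr rfl fun b _ => ?_
  refine Fintype.sum_equiv (MulAction.toPerm g : Equiv.Perm A) _ _ fun a => ?_
  rw [MulAction.toPerm_apply, hp, mul_comm]

/-- **Transfer, abstract form.** -/
theorem transfer_abs {e : X → X → ℂ} (he : ∀ (g : G) x x', e (g • x) (g • x') = e x x') {n : ℂ} (hn : n ≠ 0)
    (hee : ∀ x x', kmul e e x x' = n * e x x')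
    (hS : ∀ M : X → X → ℂ, (∀ (g : G) x x', M (g • x) (g • x') = M x x') → ∃ s : ℂ, ∀ x x', kmul (kmul e M) e x x' = s * e x x')
    {χ : G → ℂ} {a : ℂ} (ha : a ≠ 0) (hχ : ∀ g, χ g = a * ∑ x, e x (g • x))
    {P : Y → X → ℂ} (hP : ∀ (g : G) y x, P (g • y) (g • x) = P y x)
    {Q : X → Y → ℂ} (hQ : ∀ (g : G) x y, Q (g • x) (g • y) = Q x y)
    (hK : ∑ y, kmul (kmul P e) Q y y ≠ 0) :
    ∃ a' : ℂ, a' ≠ 0 ∧ ∀ g, χ g = a' * ∑ y, kmul (kmul P e) Q y (g • y) := by
  obtain ⟨s, hs⟩ := hS (kmul Q P) (fun g x x' => kmul_inv hQ hP g x x')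
  have key : ∀ g : G, ∑ y, kmul (kmul P e) Q y (g • y) = n⁻¹ * (s * (a⁻¹ * χ g)) := by
    intro g
    have h1 : ∑ y, kmul (kmul P e) Q y (g • y) = ∑ x, kmul (kmul Q P) e x (g • x) := by
      rw [trace_comm (kmul P e) Q (fun g y x => kmul_inv hP he g y x), kmul_assoc]
    have h2 : ∑ x, kmul (kmul Q P) e x (g • x) = n⁻¹ * ∑ x, kmul (kmul e (kmul Q P)) e x (g • x) := by
      rw [trace_comm (kmul e (kmul Q P)) e (fun g y x => kmul_inv he (fun g x x' => kmul_inv hQ hP g x x') g y x),
        ← kmul_assoc]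
      have h3 : kmul e e = fun x x' => n * e x x' := by
        funext x x'
        exact hee x x'
      rw [h3]
      have h4 : ∑ x, kmul (fun x x' => n * e x x') (kmul Q P) x (g • x) = n * ∑ x, kmul e (kmul Q P) x (g • x) := by
        rw [Finset.mul_sum]
        refine Finset.sum_congr rfl fun x _ => ?_
        unfold kmul
        rw [Finset.mul_sum]
        refine Finset.sum_congr rfl fun z _ => ?_
        ring
      rw [h4, ← mul_assoc, inv_mul_cancel₀ hn, one_mul]
      exact trace_comm (kmul Q P) e (fun g x x' => kmul_inv hQ hP g x x') g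
    rw [h1, h2]
    congr 1
    rw [hχ, ← mul_assoc a⁻¹, inv_mul_cancel₀ ha, one_mul, Finset.mul_sum]
    exact Finset.sum_congr rfl fun x _ => hs x (g • x)
  have hs0 : s ≠ 0 := by
    rintro rfl
    apply hK
    have h1 := key 1
    simp only [one_smul] at h1
    rw [h1, zero_mul, mul_zero]
  refine ⟨n * (s⁻¹ * a), mul_ne_zero hn (mul_ne_zero (inv_ne_zero hs0) ha), fun g => ?_⟩
  rw [key]
  field_simp

variable {ι : Type} [Fintype ι] [DecidableEq ι] {c : X → X → ι} {o : ι} {x₀ z₀ : X} {t : ι → ι → ℕ} {θ : ℂ} {ω : ι → ℂ}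

/-- an invariant kernel is a function of the colour -/
theorem exists_col (h : Col G X ι c o) {M : X → X → ℂ} (hM : ∀ (g : G) x x', M (g • x) (g • x') = M x x') :
    ∃ φ : ι → ℂ, (∀ u, (∀ x y, c x y ≠ u) → φ u = 0) ∧ ∀ x y, M x y = φ (c x y) := by
  classical
  refine ⟨fun u => if hu : ∃ p : X × X, c p.1 p.2 = u then M hu.choose.1 hu.choose.2 else 0, ?_, ?_⟩
  · intro u hu
    exact dif_neg fun ⟨p, hp⟩ => hu _ _ hp
  · intro x y
    have hu : ∃ p : X × X, c p.1 p.2 = c x y := ⟨(x, y), rfl⟩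
    show M x y = dite _ _ _
    rw [dif_pos hu]
    obtain ⟨g, h1, h2⟩ := h.tr _ _ _ _ hu.choose_spec
    have h3 := hM g hu.choose.1 hu.choose.2
    rw [h1, h2] at h3
    exact h3

/-- **Schur's lemma for a spherical function**: the kernel `ω (c x y)`. -/
theorem schur_of_eig (h : Col G X ι c o) (ht : ∀ u w, tt c x₀ z₀ u w = t u w) (hE : Eig (c x₀ z₀) o t θ ω)
    {N : X → X → ℂ} (hN : ∀ (g : G) x x', N (g • x) (g • x') = N x x') :
    ∃ s : ℂ, ∀ x y, kmul (fun x z => ω (c x z)) N x y = s * ω (c x y) := by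
  classical
  have hinv : ∀ (g : G) x x', kmul (fun x z => ω (c x z)) N (g • x) (g • x') = kmul (fun x z => ω (c x z)) N x x' :=
    kmul_inv (fun g x z => by rw [h.inv]) hN
  obtain ⟨φ, hφ0, hφ⟩ := exists_col h hinv
  have key : ∀ y, (fun x => φ (c x y)) = φ o • ee c ω y := by
    intro y
    apply h.eq_of_col ht hE hφ0
    have h1 : (fun z => φ (c z y)) ∈ WW c ω := by
      have h2 : (fun z => φ (c z y)) = ∑ z', N z' y • ee c ω z' := by
        funext x
        rw [← hφ, Finset.sum_apply]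
        unfold kmul
        refine Finset.sum_congr rfl fun z' _ => ?_
        show ω (c x z') * N z' y = N z' y * ω (c x z')
        ring
      rw [h2]
      exact Submodule.sum_mem _ fun z' _ => Submodule.smul_mem _ _ (Submodule.subset_span ⟨z', rfl⟩)
    exact h.AA_WW ht hE h1
  refine ⟨φ o, fun x y => ?_⟩
  rw [hφ]
  exact congrFun (key y) x

/-- **Transfer**: the spherical character `χ` of `X` in the permutation module of `Y`. -/
theorem transfer (h : Col G X ι c o) (ht : ∀ u w, tt c x₀ z₀ u w = t u w) (hE : Eig (c x₀ z₀) o t θ ω)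
    (hn : ∑ z, ω (c x₀ z) * ω (c z x₀) ≠ 0) {χ : G → ℂ} {a : ℂ} (ha : a ≠ 0)
    (hχ : ∀ g, χ g = a * ∑ x, ω (c x (g • x)))
    {P : Y → X → ℂ} (hP : ∀ (g : G) y x, P (g • y) (g • x) = P y x)
    {Q : X → Y → ℂ} (hQ : ∀ (g : G) x y, Q (g • x) (g • y) = Q x y)
    {κ : Type} {d : Y → Y → κ} {o' : κ} (hd : ∀ y, d y y = o') {k : κ → ℂ}
    (hk : ∀ y y', kmul (kmul P fun x z => ω (c x z)) Q y y' = k (d y y')) (hY : Nonempty Y) (hko : k o' ≠ 0) :
    ∃ a' : ℂ, a' ≠ 0 ∧ ∀ g, χ g = a' * ∑ y, (fun u => k u / k o') (d y (g • y)) := by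
  have he : ∀ (g : G) x x', (fun x z => ω (c x z)) (g • x) (g • x') = (fun x z => ω (c x z)) x x' := by
    intro g x x'
    show ω _ = ω _
    rw [h.inv]
  obtain ⟨n, hn1⟩ := schur_of_eig (N := fun x z => ω (c x z)) h ht hE he
  have hn0 : n ≠ 0 := by
    rintro rfl
    apply hn
    have h1 := hn1 x₀ x₀
    rw [zero_mul] at h1
    exact h1
  obtain ⟨a', h1, h2⟩ := transfer_abs (e := fun x z => ω (c x z)) he hn0 hn1 (by
    intro M hM
    obtain ⟨s, hs⟩ := schur_of_eig h ht hE hM
    obtain ⟨s', hs'⟩ := schur_of_eig (N := fun x z => ω (c x z)) h ht hE he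
    refine ⟨s * s', fun x x' => ?_⟩
    have h3 : kmul (fun x z => ω (c x z)) M = fun x z => s * ω (c x z) := by
      funext x z
      exact hs x z
    rw [h3]
    have h4 : kmul (fun x z => s * ω (c x z)) (fun x z => ω (c x z)) x x' =
        s * kmul (fun x z => ω (c x z)) (fun x z => ω (c x z)) x x' := by
      unfold kmul
      rw [Finset.mul_sum]
      refine Finset.sum_congr rfl fun z _ => ?_
      ring
    rw [h4, hs', mul_assoc]) ha hχ hP hQ (by
    simp only [hk, hd, Finset.sum_const, Finset.card_univ, nsmul_eq_mul]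
    refine mul_ne_zero ?_ hko
    exact_mod_cast Fintype.card_ne_zero)
  refine ⟨a' * k o', mul_ne_zero h1 hko, fun g => ?_⟩
  have h3 : ∑ y, kmul (kmul P fun x z => ω (c x z)) Q y (g • y) = k o' * ∑ y, (fun u => k u / k o') (d y (g • y)) := by
    rw [Finset.mul_sum]
    refine Finset.sum_congr rfl fun y _ => ?_
    rw [hk]
    field_simp
  rw [h2, h3, mul_assoc]

end Cfsg.Agent.H594.PQ
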